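import Mathlib
import Cfsg.Agent.Lib.Helper85.USim.Defs

/-!
# USIM (S5982), package [RED]

If `f (P u) (P v) = hermForm u v` then the similarity group of `f` is `P · HU · P⁻¹`, and its
relative index in `SL_n` is that of `HU`.
-/

set_option autoImplicit false
open scoped MatrixGroups

namespace Cfsg.Agent.Lib.Helper92.USim

open Matrix Cfsg.Agent.Lib.Helper85.USim

universe u

/-- **[RED]** -/
theorem pRed : PRed.{u} := by
  intro F _ _ q₀ n f P hP
  have ha : ∀ g : GL (Fin n) F, g ∈ Cfsg.Geo.similarityGroup f ↔ P⁻¹ * g * P ∈ HU n F q₀ := by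
    intro g
    have h1 : (P : Matrix (Fin n) (Fin n) F) * ((P⁻¹ * g * P : GL (Fin n) F) : Matrix (Fin n) (Fin n) F)
        = (g : Matrix (Fin n) (Fin n) F) * (P : Matrix (Fin n) (Fin n) F) := by
      rw [← Units.val_mul, ← Units.val_mul]
      congr 1
      group
    have h2 : ∀ w : Fin n → F, (P : Matrix (Fin n) (Fin n) F) *ᵥ
        (((P⁻¹ * g * P : GL (Fin n) F) : Matrix (Fin n) (Fin n) F) *ᵥ w) =
        (g : Matrix (Fin n) (Fin n) F) *ᵥ ((P : Matrix (Fin n) (Fin n) F) *ᵥ w) := by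
      intro w
      rw [Matrix.mulVec_mulVec, h1, ← Matrix.mulVec_mulVec]
    constructor
    · rintro ⟨c, hc⟩
      refine ⟨c, fun u v => ?_⟩
      rw [← hP, ← hP u v, ← hc, h2, h2]
    · rintro ⟨c, hc⟩
      refine ⟨c, fun u v => ?_⟩
      have h3 : ∀ w : Fin n → F, (P : Matrix (Fin n) (Fin n) F) *ᵥ
          (((P⁻¹ : GL (Fin n) F) : Matrix (Fin n) (Fin n) F) *ᵥ w) = w := by
        intro w
        rw [Matrix.mulVec_mulVec, Units.mul_inv, Matrix.one_mulVec]
      have key := hc (((P⁻¹ : GL (Fin n) F) : Matrix (Fin n) (Fin n) F) *ᵥ u)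
        (((P⁻¹ : GL (Fin n) F) : Matrix (Fin n) (Fin n) F) *ᵥ v)
      rw [← hP, ← hP, h2, h2, h3, h3] at key
      exact key
  refine ⟨ha, ?_⟩
  have hcomap : Cfsg.Geo.similarityGroup f =
      (HU n F q₀).comap (MulAut.conj P⁻¹).toMonoidHom := by
    ext g
    rw [ha g, Subgroup.mem_comap]
    show _ ↔ (MulAut.conj P⁻¹) g ∈ HU n F q₀
    rw [MulAut.conj_apply, inv_inv]
  have hnorm : (SLn n F).Normal := by
    unfold SLn Cfsg.Geo.specialLinear
    infer_instance
  have hmap : (SLn n F).map (MulAut.conj P⁻¹).toMonoidHom = SLn n F := by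
    apply le_antisymm
    · rw [Subgroup.map_le_iff_le_comap]
      intro y hy
      show (MulAut.conj P⁻¹) y ∈ SLn n F
      rw [MulAut.conj_apply]
      exact hnorm.conj_mem y hy P⁻¹
    · intro x hx
      refine Subgroup.mem_map.2 ⟨P * x * P⁻¹, hnorm.conj_mem x hx P, ?_⟩
      show (MulAut.conj P⁻¹) (P * x * P⁻¹) = x
      rw [MulAut.conj_apply]
      group
  rw [hcomap, Subgroup.relIndex_comap, hmap]

end Cfsg.Agent.Lib.Helper92.USim
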