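import Mathlib
import Cfsg.Agent.Lib.Helper85.USim.Defs
import Cfsg.Agent.Lib.Helper13.HermBasis
import Cfsg.Agent.Lib.Helper40.UnitaryWall

/-!
# USIM (S5982), package [STD]

Every non-degenerate unitary form (for `x ↦ x ^ q₀` on the field of order `q₀ ^ 2`) has an
orthonormal basis; the matrix `P` with these columns transports it to the standard form.
-/

set_option autoImplicit false
open scoped MatrixGroups

namespace Cfsg.Agent.Lib.Helper92.USim

open Matrix Cfsg.Agent.Lib.Helper85.USim Cfsg.Agent.Lib.Helper45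

universe u

/-- **[STD]** -/
theorem pStd : PStd.{u} := by
  intro F _ _ q₀ n hF f hf
  classical
  have hσ : sigmaQ hF ≠ RingHom.id F := Cfsg.Agent.Lib.Helper40.UnitaryWall.sigmaQ_ne_id' hF
  have hσ2 : ∀ a : F, sigmaQ hF (sigmaQ hF a) = a := fun a => conj_conj hF a
  -- the sesquilinear form `B v u = f u v`
  let B : (Fin n → F) →ₛₗ[sigmaQ hF] (Fin n → F) →ₗ[F] F :=
    LinearMap.mk₂'ₛₗ (sigmaQ hF) (RingHom.id F) (fun v u => f u v)
      (fun v v' u => by
        show f u (v + v') = f u v + f u v'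
        rw [hf.herm u (v + v'), hf.add_left, conj_add hF, ← hf.herm, ← hf.herm])
      (fun c v u => by
        show f u (c • v) = sigmaQ hF c • f u v
        rw [hf.herm u (c • v), hf.smul_left, mul_pow, ← hf.herm, sigmaQ_apply, smul_eq_mul])
      (fun v u u' => hf.add_left u u' v)
      (fun c v u => by
        show f (c • u) v = (RingHom.id F) c • f u v
        rw [hf.smul_left, RingHom.id_apply, smul_eq_mul])
  have hBapp : ∀ v u, B v u = f u v := fun _ _ => rfl
  have hS : B.IsSymm := ⟨fun x y => by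
    rw [hBapp, hBapp, sigmaQ_apply]
    exact (hf.herm x y).symm⟩
  have hB : B.Nondegenerate := by
    refine ⟨fun x hx => ?_, fun y hy => ?_⟩
    · by_contra hne
      obtain ⟨w, hw⟩ := (hf.nondegenerate x hne).1
      exact hw (hx w)
    · by_contra hne
      obtain ⟨w, hw⟩ := (hf.nondegenerate y hne).2
      exact hw (hy w)
  obtain ⟨b0, hb0⟩ := Cfsg.Agent.Lib.Helper13.herm_orthonormal_basis (sigmaQ hF) hσ hσ2 B hS hB
  have hfr : Module.finrank F (Fin n → F) = n := Module.finrank_fin_fun F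
  -- reindex the basis by `Fin n`
  let b : Module.Basis (Fin n) F (Fin n → F) := b0.reindex (finCongr hfr)
  have hb : ∀ i j, B (b i) (b j) = if i = j then 1 else 0 := by
    intro i j
    show B (b0.reindex (finCongr hfr) i) (b0.reindex (finCongr hfr) j) = _
    rw [Module.Basis.reindex_apply, Module.Basis.reindex_apply, hb0]
    simp
  -- the linear equivalence `u ↦ ∑ u j • b j` and its matrix
  let e : (Fin n → F) ≃ₗ[F] (Fin n → F) := b.equivFun.symm
  have he : ∀ u : Fin n → F, e u = ∑ j, u j • b j := fun u => b.equivFun_symm_apply u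
  have h1 : LinearMap.toMatrix' (e : (Fin n → F) →ₗ[F] (Fin n → F)) *
      LinearMap.toMatrix' (e.symm : (Fin n → F) →ₗ[F] (Fin n → F)) = 1 := by
    rw [← LinearMap.toMatrix'_comp, LinearEquiv.comp_coe, LinearEquiv.symm_trans_self,
      LinearEquiv.refl_toLinearMap, LinearMap.toMatrix'_id]
  have h2 : LinearMap.toMatrix' (e.symm : (Fin n → F) →ₗ[F] (Fin n → F)) *
      LinearMap.toMatrix' (e : (Fin n → F) →ₗ[F] (Fin n → F)) = 1 := by
    rw [← LinearMap.toMatrix'_comp, LinearEquiv.comp_coe, LinearEquiv.self_trans_symm,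
      LinearEquiv.refl_toLinearMap, LinearMap.toMatrix'_id]
  refine ⟨⟨LinearMap.toMatrix' (e : (Fin n → F) →ₗ[F] (Fin n → F)),
    LinearMap.toMatrix' (e.symm : (Fin n → F) →ₗ[F] (Fin n → F)), h1, h2⟩, fun u v => ?_⟩
  have hmv : ∀ w : Fin n → F,
      LinearMap.toMatrix' (e : (Fin n → F) →ₗ[F] (Fin n → F)) *ᵥ w = e w := by
    intro w
    rw [← Matrix.toLin'_apply, Matrix.toLin'_toMatrix']
    rfl
  show f (LinearMap.toMatrix' (e : (Fin n → F) →ₗ[F] (Fin n → F)) *ᵥ u)
    (LinearMap.toMatrix' (e : (Fin n → F) →ₗ[F] (Fin n → F)) *ᵥ v) = _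
  rw [hmv, hmv, ← hBapp, he, he]
  simp only [map_sum, LinearMap.map_smulₛₗ, LinearMap.sum_apply, LinearMap.smul_apply, map_smul,
    hb, smul_eq_mul]
  unfold Cfsg.hermForm
  refine Finset.sum_congr rfl fun i _ => ?_
  simp [sigmaQ_apply]

end Cfsg.Agent.Lib.Helper92.USim
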